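import Mathlib

/-!
Automorphisms of groups of class two with commutator subgroup of order two: the maps
`u ↦ u` or `u ↦ u y` according as `u` commutes with `y`, for `y` with `y ^ 2` the central involution.
-/

set_option autoImplicit false

namespace Cfsg.Agent.Lib.Griess

variable {Q : Type*} [Group Q]

/-- Class-two data. -/
structure Cl2 (z : Q) : Prop where
  ne : z ≠ 1
  sq : z * z = 1
  cen : ∀ u, u * z = z * u
  di : ∀ u v : Q, u * v = v * u ∨ u * v = v * u * z

variable {z : Q}

open Classical in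
/-- The commutator bit. -/
noncomputable def bit (x u : Q) : ZMod 2 := if u * x = x * u then 0 else 1

lemma bit_eq_zero {x u : Q} : bit x u = 0 ↔ u * x = x * u := by
  unfold bit
  split_ifs with h <;> simp [h]

lemma bit_eq_one {x u : Q} : bit x u = 1 ↔ u * x ≠ x * u := by
  unfold bit
  split_ifs with h <;> simp [h]

lemma bit_zero_or (x u : Q) : bit x u = 0 ∨ bit x u = 1 := by
  unfold bit
  split_ifs <;> simp

lemma nc (hz : Cl2 z) {u v : Q} (h : u * v ≠ v * u) : u * v = v * u * z :=
  (hz.di u v).resolve_left h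

lemma nc_ne (hz : Cl2 z) {u v : Q} : v * u * z ≠ v * u := by
  intro h
  exact hz.ne (by simpa using h)

lemma bit_mul_right (hz : Cl2 z) (x u v : Q) : bit x (u * v) = bit x u + bit x v := by
  have hcz := hz.cen
  have hzz := hz.sq
  rcases bit_zero_or x u with h1 | h1 <;> rcases bit_zero_or x v with h2 | h2
  · rw [h1, h2, add_zero, bit_eq_zero]
    have h1' := bit_eq_zero.1 h1
    have h2' := bit_eq_zero.1 h2
    rw [mul_assoc, h2', ← mul_assoc, h1', mul_assoc]
  · rw [h1, h2, zero_add, bit_eq_one]
    have h1' := bit_eq_zero.1 h1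
    have h2' := nc hz (bit_eq_one.1 h2)
    rw [mul_assoc, h2', ← mul_assoc, ← mul_assoc, h1', mul_assoc x]
    exact nc_ne hz
  · rw [h1, h2, add_zero, bit_eq_one]
    have h1' := nc hz (bit_eq_one.1 h1)
    have h2' := bit_eq_zero.1 h2
    have h : u * v * x = x * (u * v) * z := by
      calc u * v * x = u * (v * x) := mul_assoc _ _ _
        _ = (u * x) * v := by rw [h2']; simp only [mul_assoc]
        _ = x * u * (z * v) := by rw [h1']; simp only [mul_assoc]
        _ = x * u * (v * z) := by rw [hcz v]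
        _ = x * (u * v) * z := by simp only [mul_assoc]
    rw [h]
    exact nc_ne hz
  · have h3 : (1 : ZMod 2) + 1 = 0 := by decide
    rw [h1, h2, h3, bit_eq_zero]
    have h1' := nc hz (bit_eq_one.1 h1)
    have h2' := nc hz (bit_eq_one.1 h2)
    calc u * v * x = u * (v * x) := mul_assoc _ _ _
      _ = u * (x * v * z) := by rw [h2']
      _ = (u * x) * v * z := by simp only [mul_assoc]
      _ = (x * u * z) * v * z := by rw [h1']
      _ = x * u * (z * v) * z := by simp only [mul_assoc]
      _ = x * u * (v * z) * z := by rw [hcz v]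
      _ = x * (u * v) * (z * z) := by simp only [mul_assoc]
      _ = x * (u * v) := by rw [hzz, mul_one]

lemma bit_mul_left (hz : Cl2 z) (x y u : Q) : bit (x * y) u = bit x u + bit y u := by
  have hcz := hz.cen
  have hzz := hz.sq
  rcases bit_zero_or x u with h1 | h1 <;> rcases bit_zero_or y u with h2 | h2
  · rw [h1, h2, add_zero, bit_eq_zero]
    have h1' := bit_eq_zero.1 h1
    have h2' := bit_eq_zero.1 h2
    rw [← mul_assoc, h1', mul_assoc, h2', mul_assoc]
  · rw [h1, h2, zero_add, bit_eq_one]
    have h1' := bit_eq_zero.1 h1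
    have h2' := nc hz (bit_eq_one.1 h2)
    have h : u * (x * y) = x * y * u * z := by
      calc u * (x * y) = (u * x) * y := by simp only [mul_assoc]
        _ = x * (u * y) := by rw [h1']; simp only [mul_assoc]
        _ = x * (y * u * z) := by rw [h2']
        _ = x * y * u * z := by simp only [mul_assoc]
    rw [h]
    exact nc_ne hz
  · rw [h1, h2, add_zero, bit_eq_one]
    have h1' := nc hz (bit_eq_one.1 h1)
    have h2' := bit_eq_zero.1 h2
    have h : u * (x * y) = x * y * u * z := by
      calc u * (x * y) = (u * x) * y := by simp only [mul_assoc]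
        _ = x * u * (z * y) := by rw [h1']; simp only [mul_assoc]
        _ = x * u * (y * z) := by rw [hcz y]
        _ = x * (u * y) * z := by simp only [mul_assoc]
        _ = x * (y * u) * z := by rw [h2']
        _ = x * y * u * z := by simp only [mul_assoc]
    rw [h]
    exact nc_ne hz
  · have h3 : (1 : ZMod 2) + 1 = 0 := by decide
    rw [h1, h2, h3, bit_eq_zero]
    have h1' := nc hz (bit_eq_one.1 h1)
    have h2' := nc hz (bit_eq_one.1 h2)
    calc u * (x * y) = (u * x) * y := by rw [mul_assoc]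
      _ = (x * u * z) * y := by rw [h1']
      _ = x * u * (z * y) := by simp only [mul_assoc]
      _ = x * u * (y * z) := by rw [hcz y]
      _ = x * (u * y) * z := by simp only [mul_assoc]
      _ = x * (y * u * z) * z := by rw [h2']
      _ = x * (y * u) * (z * z) := by simp only [mul_assoc]
      _ = x * y * u := by rw [hzz, mul_one, mul_assoc]

lemma bit_one_right (hz : Cl2 z) (x : Q) : bit x 1 = 0 := by
  rw [bit_eq_zero]
  simp

lemma bit_self (x : Q) : bit x x = 0 := by
  rw [bit_eq_zero]

lemma bit_comm {x u : Q} : bit x u = bit u x := by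
  unfold bit
  by_cases h : u * x = x * u
  · rw [if_pos h, if_pos h.symm]
  · rw [if_neg h, if_neg (fun h2 => h h2.symm)]

open Classical in
/-- The elementary automorphism. -/
noncomputable def tauFun (y u : Q) : Q := if u * y = y * u then u else u * y

lemma tau_of_comm {y u : Q} (h : u * y = y * u) : tauFun y u = u := by
  unfold tauFun
  rw [if_pos h]

lemma tau_of_nc {y u : Q} (h : u * y ≠ y * u) : tauFun y u = u * y := by
  unfold tauFun
  rw [if_neg h]

lemma tau_mul (hz : Cl2 z) {y : Q} (hy : y * y = z) (u v : Q) : tauFun y (u * v) = tauFun y u * tauFun y v := by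
  have hcz := hz.cen
  have hzz := hz.sq
  rcases bit_zero_or y u with h1 | h1 <;> rcases bit_zero_or y v with h2 | h2
  · have h3 : bit y (u * v) = 0 := by rw [bit_mul_right hz, h1, h2, add_zero]
    rw [tau_of_comm (bit_eq_zero.1 h3), tau_of_comm (bit_eq_zero.1 h1), tau_of_comm (bit_eq_zero.1 h2)]
  · have h3 : bit y (u * v) = 1 := by rw [bit_mul_right hz, h1, h2, zero_add]
    rw [tau_of_nc (bit_eq_one.1 h3), tau_of_comm (bit_eq_zero.1 h1), tau_of_nc (bit_eq_one.1 h2), mul_assoc]
  · have h3 : bit y (u * v) = 1 := by rw [bit_mul_right hz, h1, h2, add_zero]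
    have h2' := bit_eq_zero.1 h2
    rw [tau_of_nc (bit_eq_one.1 h3), tau_of_nc (bit_eq_one.1 h1), tau_of_comm h2', mul_assoc, mul_assoc, h2']
  · have h4 : (1 : ZMod 2) + 1 = 0 := by decide
    have h3 : bit y (u * v) = 0 := by rw [bit_mul_right hz, h1, h2, h4]
    have h2' := nc hz (bit_eq_one.1 h2)
    rw [tau_of_comm (bit_eq_zero.1 h3), tau_of_nc (bit_eq_one.1 h1), tau_of_nc (bit_eq_one.1 h2)]
    -- y v = v y z
    have h5 : y * v = v * y * z := by
      have h6 : v * y * z = y * v * z * z := by rw [h2']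
      rw [h6, mul_assoc, hzz, mul_one]
    calc u * v = u * v * (z * z) := by rw [hzz, mul_one]
      _ = u * (v * (y * y)) * z := by rw [hy]; simp only [mul_assoc]
      _ = u * (v * y * y * z) := by simp only [mul_assoc]
      _ = u * (y * v * y) := by
        have h7 : y * v * y = v * y * y * z := by
          calc y * v * y = v * y * (z * y) := by rw [h5]; simp only [mul_assoc]
            _ = v * y * (y * z) := by rw [hcz y]
            _ = v * y * y * z := by simp only [mul_assoc]
        rw [h7]
      _ = u * y * (v * y) := by simp only [mul_assoc]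

lemma tau_tau (hz : Cl2 z) {y : Q} (hy : y * y = z) (u : Q) : tauFun y (tauFun y u) = y * u * y⁻¹ := by
  rcases bit_zero_or y u with h1 | h1
  · have h1' := bit_eq_zero.1 h1
    rw [tau_of_comm h1', tau_of_comm h1', ← h1', mul_inv_cancel_right]
  · have h1' := bit_eq_one.1 h1
    have h2 : bit y (u * y) = 1 := by rw [bit_mul_right hz, h1, bit_self, add_zero]
    rw [tau_of_nc h1', tau_of_nc (bit_eq_one.1 h2), mul_assoc, hy]
    have h3 := nc hz h1'
    have h4 : y * u = u * y * z := by
      rw [h3, mul_assoc, hz.sq, mul_one]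
    have h5 : u * y * z = u * z * y := by rw [mul_assoc, hz.cen y, ← mul_assoc]
    rw [h4, h5, mul_inv_cancel_right]

/-- The elementary automorphism as an element of `MulAut`. -/
noncomputable def T (hz : Cl2 z) {y : Q} (hy : y * y = z) : MulAut Q :=
  MulEquiv.ofBijective (MonoidHom.mk' (tauFun y) (tau_mul hz hy)) (by
    constructor
    · intro u v h
      have h1 : tauFun y u = tauFun y v := h
      have h2 := congrArg (tauFun y) h1
      rw [tau_tau hz hy, tau_tau hz hy] at h2
      exact mul_left_cancel (mul_right_cancel h2)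
    · intro w
      refine ⟨tauFun y (y⁻¹ * w * y), ?_⟩
      show tauFun y (tauFun y (y⁻¹ * w * y)) = w
      rw [tau_tau hz hy]
      group)

@[simp] lemma T_apply (hz : Cl2 z) {y : Q} (hy : y * y = z) (u : Q) : T hz hy u = tauFun y u := rfl

lemma T_sq (hz : Cl2 z) {y : Q} (hy : y * y = z) : T hz hy * T hz hy = MulAut.conj y := by
  ext u
  show tauFun y (tauFun y u) = y * u * y⁻¹
  rw [tau_tau hz hy]

lemma T_comm (hz : Cl2 z) {y y' : Q} (hy : y * y = z) (hy' : y' * y' = z) (h : y * y' = y' * y) :
    T hz hy * T hz hy' = T hz hy' * T hz hy := by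
  ext u
  show tauFun y (tauFun y' u) = tauFun y' (tauFun y u)
  have h1 : tauFun y y' = y' := tau_of_comm h.symm
  have h2 : tauFun y' y = y := tau_of_comm h
  rcases bit_zero_or y u with ha | ha <;> rcases bit_zero_or y' u with hb | hb
  · rw [tau_of_comm (bit_eq_zero.1 hb), tau_of_comm (bit_eq_zero.1 ha), tau_of_comm (bit_eq_zero.1 hb)]
  · rw [tau_of_nc (bit_eq_one.1 hb), tau_mul hz hy, h1, tau_of_comm (bit_eq_zero.1 ha), tau_of_nc (bit_eq_one.1 hb)]
  · rw [tau_of_comm (bit_eq_zero.1 hb), tau_of_nc (bit_eq_one.1 ha), tau_mul hz hy', h2, tau_of_comm (bit_eq_zero.1 hb)]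
  · rw [tau_of_nc (bit_eq_one.1 hb), tau_of_nc (bit_eq_one.1 ha), tau_mul hz hy, tau_mul hz hy', h1, h2,
      tau_of_nc (bit_eq_one.1 hb), tau_of_nc (bit_eq_one.1 ha), mul_assoc, mul_assoc, h]

/-- Inner automorphisms move elements by central signs. -/
lemma conj_sign (hz : Cl2 z) (w x : Q) : MulAut.conj w x = x ∨ MulAut.conj w x = x * z := by
  rw [MulAut.conj_apply]
  rcases hz.di w x with h | h
  · left
    rw [h, mul_inv_cancel_right]
  · right
    rw [h, mul_assoc x, hz.cen, ← mul_assoc, mul_inv_cancel_right]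

/-- The pattern lemma: three independent elements have independent commutator bits. -/
theorem pattern [Finite Q] (hz : Cl2 z) (hc : ∀ w : Q, (∀ u, u * w = w * u) → w = 1 ∨ w = z) (x₁ x₂ x₃ : Q)
    (h1 : x₁ ≠ 1 ∧ x₁ ≠ z) (h2 : x₂ ≠ 1 ∧ x₂ ≠ z) (h3 : x₃ ≠ 1 ∧ x₃ ≠ z) (h12 : x₁ * x₂ ≠ 1 ∧ x₁ * x₂ ≠ z)
    (h13 : x₁ * x₃ ≠ 1 ∧ x₁ * x₃ ≠ z) (h23 : x₂ * x₃ ≠ 1 ∧ x₂ * x₃ ≠ z)
    (h123 : x₁ * x₂ * x₃ ≠ 1 ∧ x₁ * x₂ * x₃ ≠ z) (a b c : ZMod 2) :
    ∃ u, bit x₁ u = a ∧ bit x₂ u = b ∧ bit x₃ u = c := by
  classical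
  let χ : Q → (Fin 3 → ZMod 2) := fun u => ![bit x₁ u, bit x₂ u, bit x₃ u]
  have hχmul : ∀ u v, χ (u * v) = χ u + χ v := by
    intro u v
    funext i
    fin_cases i <;> simp [χ, bit_mul_right hz]
  have hχone : χ 1 = 0 := by
    funext i
    fin_cases i <;> simp [χ, bit_one_right hz]
  have hnz : ∀ w : Q, (w ≠ 1 ∧ w ≠ z) → ∃ u, bit w u = 1 := by
    intro w hw
    by_contra hcon
    push Not at hcon
    have h5 : ∀ u, u * w = w * u := fun u =>
      bit_eq_zero.1 ((bit_zero_or w u).resolve_right (hcon u))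
    rcases hc w h5 with h6 | h6
    · exact hw.1 h6
    · exact hw.2 h6
  let p : Submodule (ZMod 2) (Fin 3 → ZMod 2) := Submodule.span (ZMod 2) (Set.range χ)
  have hp : p = ⊤ := by
    by_contra hp
    obtain ⟨f, hf0, hf⟩ := Submodule.exists_le_ker_of_lt_top p (lt_top_iff_ne_top.2 hp)
    have hval : ∀ u, f (χ u) = 0 := fun u => hf (Submodule.subset_span ⟨u, rfl⟩)
    set α₁ := f ![1, 0, 0] with hα₁
    set α₂ := f ![0, 1, 0] with hα₂
    set α₃ := f ![0, 0, 1] with hα₃
    have hdec : ∀ t : Fin 3 → ZMod 2, f t = t 0 * α₁ + t 1 * α₂ + t 2 * α₃ := by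
      intro t
      have h5 : t = t 0 • ![1, 0, 0] + t 1 • ![0, 1, 0] + t 2 • ![0, 0, 1] := by
        funext i
        fin_cases i <;> simp
      have h6 : f t = f (t 0 • ![1, 0, 0] + t 1 • ![0, 1, 0] + t 2 • ![0, 0, 1]) := congrArg f h5
      rw [h6, map_add, map_add, map_smul, map_smul, map_smul]
      simp only [smul_eq_mul]
      rfl
    have hχval : ∀ u, bit x₁ u * α₁ + bit x₂ u * α₂ + bit x₃ u * α₃ = 0 := by
      intro u
      have := hval u
      rw [hdec] at this
      simpa [χ] using this
    have hallz : α₁ = 0 ∧ α₂ = 0 ∧ α₃ = 0 := by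
      have hα : ∀ α : ZMod 2, α = 0 ∨ α = 1 := by decide
      rcases hα α₁ with ha1 | ha1 <;> rcases hα α₂ with ha2 | ha2 <;> rcases hα α₃ with ha3 | ha3
      · exact ⟨ha1, ha2, ha3⟩
      · exfalso
        obtain ⟨u, hu⟩ := hnz x₃ h3
        have := hχval u
        rw [ha1, ha2, ha3, hu] at this
        simp at this
      · exfalso
        obtain ⟨u, hu⟩ := hnz x₂ h2
        have := hχval u
        rw [ha1, ha2, ha3, hu] at this
        simp at this
      · exfalso
        obtain ⟨u, hu⟩ := hnz _ h23
        have := hχval u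
        rw [bit_mul_left hz] at hu
        rw [ha1, ha2, ha3] at this
        simp only [mul_zero, zero_add, mul_one] at this
        rw [this] at hu
        exact zero_ne_one hu
      · exfalso
        obtain ⟨u, hu⟩ := hnz x₁ h1
        have := hχval u
        rw [ha1, ha2, ha3, hu] at this
        simp at this
      · exfalso
        obtain ⟨u, hu⟩ := hnz _ h13
        have := hχval u
        rw [bit_mul_left hz] at hu
        rw [ha1, ha2, ha3] at this
        simp only [mul_zero, add_zero, mul_one] at this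
        rw [this] at hu
        exact zero_ne_one hu
      · exfalso
        obtain ⟨u, hu⟩ := hnz _ h12
        have := hχval u
        rw [bit_mul_left hz] at hu
        rw [ha1, ha2, ha3] at this
        simp only [mul_zero, add_zero, mul_one] at this
        rw [this] at hu
        exact zero_ne_one hu
      · exfalso
        obtain ⟨u, hu⟩ := hnz _ h123
        have := hχval u
        rw [bit_mul_left hz, bit_mul_left hz] at hu
        rw [ha1, ha2, ha3] at this
        simp only [mul_one] at this
        rw [this] at hu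
        exact zero_ne_one hu
    apply hf0
    apply LinearMap.ext
    intro t
    rw [hdec, hallz.1, hallz.2.1, hallz.2.2]
    simp
  have hmem : (![a, b, c] : Fin 3 → ZMod 2) ∈ p := by
    rw [hp]
    trivial
  have hex : ∀ t ∈ p, ∃ u, χ u = t := by
    intro t ht
    induction ht using Submodule.span_induction with
    | mem x hx => exact hx
    | zero => exact ⟨1, hχone⟩
    | add x y _ _ hx hy =>
      obtain ⟨u, rfl⟩ := hx
      obtain ⟨v, rfl⟩ := hy
      exact ⟨u * v, hχmul u v⟩
    | smul c x _ hx =>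
      obtain ⟨u, rfl⟩ := hx
      have hα : ∀ α : ZMod 2, α = 0 ∨ α = 1 := by decide
      rcases hα c with rfl | rfl
      · exact ⟨1, by rw [hχone, zero_smul]⟩
      · exact ⟨u, by rw [one_smul]⟩
  obtain ⟨u, hu⟩ := hex _ hmem
  refine ⟨u, ?_, ?_, ?_⟩
  · simpa [χ] using congrFun hu 0
  · simpa [χ] using congrFun hu 1
  · simpa [χ] using congrFun hu 2

end Cfsg.Agent.Lib.Griess
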