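import Mathlib
import Cfsg.Prelude.Def_KGroupFacts
import Cfsg.Agent.Lib.Griess.Basic

/-!
The central obstruction: a Klein four-group of outer automorphisms which does not lift.
-/

set_option autoImplicit false

namespace Cfsg.Agent.Lib.Griess

variable {Q : Type*} [Group Q] {z : Q}

lemma T_zero (hz : Cl2 z) {y u : Q} (hy : y * y = z) (h : bit y u = 0) : T hz hy u = u :=
  tau_of_comm (bit_eq_zero.1 h)

lemma T_one (hz : Cl2 z) {y u : Q} (hy : y * y = z) (h : bit y u = 1) : T hz hy u = u * y :=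
  tau_of_nc (bit_eq_one.1 h)

lemma T_fix (hz : Cl2 z) {y u : Q} (hy : y * y = z) (h : u * y = y * u) : T hz hy u = u :=
  tau_of_comm h

lemma T_z (hz : Cl2 z) {y : Q} (hy : y * y = z) : T hz hy z = z :=
  T_fix hz hy (hz.cen y).symm

/-- An automorphism squaring to one and moving `u` to `u * y` modulo the centre sends `y` to its inverse. -/
lemma inv_of_sq (hz : Cl2 z) (l : MulAut Q) (hl : l * l = 1) (hlz : l z = z) {u y r : Q}
    (hr : r = 1 ∨ r = z) (hu : l u = u * y * r) : l y = y⁻¹ := by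
  have hlr : l r = r := by
    rcases hr with rfl | rfl
    · exact map_one l
    · exact hlz
  have hrc : ∀ w, w * r = r * w := by
    intro w
    rcases hr with rfl | rfl
    · simp
    · exact hz.cen w
  have hrr : r * r = 1 := by
    rcases hr with rfl | rfl
    · simp
    · exact hz.sq
  have h1 : l (l u) = u := by
    have := congrArg (fun g : MulAut Q => g u) hl
    simpa using this
  rw [hu, map_mul, map_mul, hu, hlr] at h1
  have h2 : u * (y * l y) = u := by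
    calc u * (y * l y) = u * y * (r * l y) * r := by
          rw [← hrc (l y)]
          simp only [mul_assoc]
          rw [hrr, mul_one]
      _ = u * y * r * l y * r := by simp only [mul_assoc]
      _ = u := h1
  have h3 : y * l y = 1 := by simpa using h2
  exact eq_inv_of_mul_eq_one_right h3

lemma inv_of_sq_z (hz : Cl2 z) {y : Q} (hy : y * y = z) : y⁻¹ = y * z := by
  rw [← hy]
  have h : y * z = y * (y * y) := by rw [hy]
  have h2 : y * z * y = 1 := by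
    rw [mul_assoc, hz.cen y |>.symm, ← mul_assoc, hy, hz.sq]
  exact inv_eq_of_mul_eq_one_left (by rw [hy]; exact h2)

/-- The Griess obstruction, abstractly. -/
theorem core (hz : Cl2 z) {y₁ y₂ y₃ y₄ : Q} (h₁ : y₁ * y₁ = z) (h₂ : y₂ * y₂ = z) (h₃ : y₃ * y₃ = z)
    (h₄ : y₄ * y₄ = z) (c12 : y₁ * y₂ = y₂ * y₁) (c13 : y₁ * y₃ = y₃ * y₁) (c14 : y₁ * y₄ = y₄ * y₁)
    (c23 : y₂ * y₃ = y₃ * y₂) (c24 : y₂ * y₄ = y₄ * y₂) (c34 : y₃ * y₄ = y₄ * y₃)
    (hprod : y₁ * y₂ * y₃ * y₄ = 1) {ua u0 u3 u4 : Q}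
    (ha : bit y₁ ua = 0 ∧ bit y₂ ua = 1)
    (h0 : bit y₁ u0 = 1 ∧ bit y₂ u0 = 1 ∧ bit y₃ u0 = 0 ∧ bit y₄ u0 = 0)
    (h3' : bit y₂ u3 = 0 ∧ bit y₃ u3 = 1 ∧ bit y₄ u3 = 0)
    (h4' : bit y₂ u4 = 0 ∧ bit y₃ u4 = 0 ∧ bit y₄ u4 = 1)
    (L : Subgroup (MulAut Q)) (hL : (Cfsg.Inn Q).IsComplement' L) : False := by
  set t₁ := T hz h₁ with ht₁
  set t₂ := T hz h₂ with ht₂
  set t₃ := T hz h₃ with ht₃
  set t₄ := T hz h₄ with ht₄
  have tc12 : t₁ * t₂ = t₂ * t₁ := T_comm hz h₁ h₂ c12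
  have tc13 : t₁ * t₃ = t₃ * t₁ := T_comm hz h₁ h₃ c13
  have tc14 : t₁ * t₄ = t₄ * t₁ := T_comm hz h₁ h₄ c14
  have tc23 : t₂ * t₃ = t₃ * t₂ := T_comm hz h₂ h₃ c23
  have tc24 : t₂ * t₄ = t₄ * t₂ := T_comm hz h₂ h₄ c24
  have tc34 : t₃ * t₄ = t₄ * t₃ := T_comm hz h₃ h₄ c34
  set b := t₁ * t₂ with hb
  set c := t₂ * t₃ * t₄ with hc
  have hbc : b * c = c * b := by
    have hcm : Commute t₁ t₂ := tc12
    have h13 : Commute t₁ t₃ := tc13
    have h14 : Commute t₁ t₄ := tc14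
    have h23 : Commute t₂ t₃ := tc23
    have h24 : Commute t₂ t₄ := tc24
    have h34 : Commute t₃ t₄ := tc34
    have hbc' : Commute b c := by
      apply Commute.mul_left
      · exact (hcm.mul_right h13).mul_right h14
      · exact (Commute.refl t₂ |>.mul_right h23).mul_right h24
    exact hbc'
  have hInn : ∀ w : Q, MulAut.conj w ∈ Cfsg.Inn Q := fun w => ⟨w, rfl⟩
  have hb2 : b * b ∈ Cfsg.Inn Q := by
    have : b * b = MulAut.conj (y₁ * y₂) := by
      rw [map_mul, ← T_sq hz h₁, ← T_sq hz h₂]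
      have hcm : Commute t₁ t₂ := tc12
      calc b * b = t₁ * t₂ * (t₁ * t₂) := rfl
        _ = t₁ * t₁ * (t₂ * t₂) := hcm.symm.mul_mul_mul_comm t₁ t₂
    rw [this]
    exact hInn _
  have hc2 : c * c ∈ Cfsg.Inn Q := by
    have : c * c = MulAut.conj (y₂ * y₃ * y₄) := by
      rw [map_mul, map_mul, ← T_sq hz h₂, ← T_sq hz h₃, ← T_sq hz h₄]
      have h23 : Commute t₂ t₃ := tc23
      have h24 : Commute t₂ t₄ := tc24
      have h34 : Commute t₃ t₄ := tc34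
      calc c * c = t₂ * t₃ * t₄ * (t₂ * t₃ * t₄) := rfl
        _ = t₂ * t₃ * (t₂ * t₃) * (t₄ * t₄) := (h24.mul_left h34).symm.mul_mul_mul_comm _ _
        _ = t₂ * t₂ * (t₃ * t₃) * (t₄ * t₄) := by rw [h23.symm.mul_mul_mul_comm]
    rw [this]
    exact hInn _
  -- the complement
  have hdisj := hL.disjoint
  have hcomp : ∀ g : MulAut Q, ∃ l ∈ L, ∃ w : Q, g = MulAut.conj w * l := by
    intro g
    obtain ⟨⟨⟨i, hi⟩, ⟨l, hl⟩⟩, h⟩ := hL.2 g
    obtain ⟨w, rfl⟩ := hi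
    exact ⟨l, hl, w, h.symm⟩
  obtain ⟨l, hlL, wb, hwb⟩ := hcomp b
  obtain ⟨m, hmL, wc, hwc⟩ := hcomp c
  let π := QuotientGroup.mk' (Cfsg.Inn Q)
  have hπ : ∀ g : MulAut Q, g ∈ Cfsg.Inn Q → π g = 1 := fun g hg => by
    simpa [π] using hg
  have hπ' : ∀ g : MulAut Q, π g = 1 → g ∈ Cfsg.Inn Q := fun g hg => by
    simpa [π] using hg
  have hπb : π b = π l := by
    rw [hwb, map_mul, hπ _ (hInn wb), one_mul]
  have hπc : π c = π m := by
    rw [hwc, map_mul, hπ _ (hInn wc), one_mul]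
  have hl2 : l * l = 1 := by
    apply Subgroup.disjoint_def.1 hdisj _ (L.mul_mem hlL hlL)
    apply hπ'
    rw [map_mul, ← hπb, ← map_mul]
    exact hπ _ hb2
  have hm2 : m * m = 1 := by
    apply Subgroup.disjoint_def.1 hdisj _ (L.mul_mem hmL hmL)
    apply hπ'
    rw [map_mul, ← hπc, ← map_mul]
    exact hπ _ hc2
  have hlm : l * m = m * l := by
    have h1 : l * m * (m * l)⁻¹ = 1 := by
      apply Subgroup.disjoint_def.1 hdisj _ (L.mul_mem (L.mul_mem hlL hmL) (L.inv_mem (L.mul_mem hmL hlL)))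
      apply hπ'
      rw [map_mul, map_inv, map_mul, map_mul, ← hπb, ← hπc, ← map_mul, ← map_mul, hbc]
      simp
    exact mul_inv_eq_one.1 h1
  -- the signs
  have hsign : ∀ (g k : MulAut Q) (w : Q), g = MulAut.conj w * k → ∀ u, ∃ r, (r = 1 ∨ r = z) ∧ k u = g u * r := by
    intro g k w hg u
    have hk : k = MulAut.conj w⁻¹ * g := by
      rw [hg, ← mul_assoc, ← map_mul]
      simp
    have : k u = MulAut.conj w⁻¹ (g u) := by rw [hk]; rfl
    rcases conj_sign hz w⁻¹ (g u) with h | h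
    · exact ⟨1, Or.inl rfl, by rw [this, h, mul_one]⟩
    · exact ⟨z, Or.inr rfl, by rw [this, h]⟩
  have hsl := hsign b l wb hwb
  have hsm := hsign c m wc hwc
  have hfz : ∀ (g k : MulAut Q), g z = z → (∃ r, (r = 1 ∨ r = z) ∧ k z = g z * r) → k z = z := by
    intro g k hg ⟨r, hr, hk⟩
    rcases hr with rfl | rfl
    · rw [hk, hg, mul_one]
    · exfalso
      rw [hg, hz.sq] at hk
      exact hz.ne ((map_eq_one_iff k k.injective).1 hk)
  have hbz : b z = z := by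
    show t₁ (t₂ z) = z
    rw [ht₂, T_z, ht₁, T_z]
  have hcz : c z = z := by
    show t₂ (t₃ (t₄ z)) = z
    rw [ht₄, T_z, ht₃, T_z, ht₂, T_z]
  have hlz : l z = z := hfz b l hbz (hsl z)
  have hmz : m z = z := hfz c m hcz (hsm z)
  -- values of b and c
  have hbua : b ua = ua * y₂ := by
    show t₁ (t₂ ua) = ua * y₂
    rw [ht₂, T_one hz h₂ ha.2, ht₁, map_mul, T_zero hz h₁ ha.1, T_fix hz h₁ c12.symm]
  have hbu0 : b u0 = u0 * y₁ * y₂ := by
    show t₁ (t₂ u0) = u0 * y₁ * y₂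
    rw [ht₂, T_one hz h₂ h0.2.1, ht₁, map_mul, T_one hz h₁ h0.1, T_fix hz h₁ c12.symm]
  have hcu0 : c u0 = u0 * y₂ := by
    show t₂ (t₃ (t₄ u0)) = u0 * y₂
    rw [ht₄, T_zero hz h₄ h0.2.2.2, ht₃, T_zero hz h₃ h0.2.2.1, ht₂, T_one hz h₂ h0.2.1]
  have hcu3 : c u3 = u3 * y₃ := by
    show t₂ (t₃ (t₄ u3)) = u3 * y₃
    rw [ht₄, T_zero hz h₄ h3'.2.2, ht₃, T_one hz h₃ h3'.2.1, ht₂, map_mul, T_zero hz h₂ h3'.1, T_fix hz h₂ c23.symm]
  have hcu4 : c u4 = u4 * y₄ := by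
    show t₂ (t₃ (t₄ u4)) = u4 * y₄
    rw [ht₄, T_one hz h₄ h4'.2.2, ht₃, map_mul, T_zero hz h₃ h4'.2.1, T_fix hz h₃ c34.symm, ht₂, map_mul,
      T_zero hz h₂ h4'.1, T_fix hz h₂ c24.symm]
  -- step 1
  have hly2 : l y₂ = y₂⁻¹ := by
    obtain ⟨r, hr, hu⟩ := hsl ua
    exact inv_of_sq hz l hl2 hlz hr (by rw [hu, hbua])
  have hmy2 : m y₂ = y₂⁻¹ := by
    obtain ⟨r, hr, hu⟩ := hsm u0
    exact inv_of_sq hz m hm2 hmz hr (by rw [hu, hcu0])
  have hmy3 : m y₃ = y₃⁻¹ := by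
    obtain ⟨r, hr, hu⟩ := hsm u3
    exact inv_of_sq hz m hm2 hmz hr (by rw [hu, hcu3])
  have hmy4 : m y₄ = y₄⁻¹ := by
    obtain ⟨r, hr, hu⟩ := hsm u4
    exact inv_of_sq hz m hm2 hmz hr (by rw [hu, hcu4])
  have hmy1 : m y₁ = y₁⁻¹ := by
    have h1 : m y₁ * y₂⁻¹ * y₃⁻¹ * y₄⁻¹ = 1 := by
      have := congrArg m hprod
      rwa [map_mul, map_mul, map_mul, hmy2, hmy3, hmy4, map_one] at this
    have h2 : y₁⁻¹ * y₂⁻¹ * y₃⁻¹ * y₄⁻¹ = 1 := by
      have h3 : Commute y₂ y₃ := c23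
      have h4 : Commute y₂ y₄ := c24
      have h5 : Commute y₃ y₄ := c34
      have h6 : Commute y₁ y₂ := c12
      have h7 : Commute y₁ y₃ := c13
      have h8 : Commute y₁ y₄ := c14
      have h9 : (y₁ * y₂ * y₃ * y₄)⁻¹ = y₁⁻¹ * y₂⁻¹ * y₃⁻¹ * y₄⁻¹ := by
        have e1 : Commute (y₁ * y₂ * y₃) y₄ := (h8.mul_left h4).mul_left h5
        have e2 : Commute (y₁ * y₂) y₃ := h7.mul_left h3
        rw [e1.mul_inv, e2.mul_inv, h6.mul_inv]
      rw [← h9, hprod, inv_one]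
    have h3 : m y₁ * y₂⁻¹ * y₃⁻¹ * y₄⁻¹ = y₁⁻¹ * y₂⁻¹ * y₃⁻¹ * y₄⁻¹ := by rw [h1, h2]
    exact mul_right_cancel (mul_right_cancel (mul_right_cancel h3))
  -- the contradiction
  obtain ⟨r, hr, hlu⟩ := hsl u0
  obtain ⟨t, ht, hmu⟩ := hsm u0
  have hlr : l r = r := by
    rcases hr with rfl | rfl
    · exact map_one l
    · exact hlz
  have hlt : l t = t := by
    rcases ht with rfl | rfl
    · exact map_one l
    · exact hlz
  have hmr : m r = r := by
    rcases hr with rfl | rfl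
    · exact map_one m
    · exact hmz
  have hmt : m t = t := by
    rcases ht with rfl | rfl
    · exact map_one m
    · exact hmz
  have hrc : ∀ w, w * r = r * w := by
    intro w
    rcases hr with rfl | rfl
    · simp
    · exact hz.cen w
  have htc : ∀ w, w * t = t * w := by
    intro w
    rcases ht with rfl | rfl
    · simp
    · exact hz.cen w
  have hlu' : l u0 = u0 * y₁ * y₂ * r := by rw [hlu, hbu0]
  have hmu' : m u0 = u0 * y₂ * t := by rw [hmu, hcu0]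
  have hE : (l * m) u0 = (m * l) u0 := by rw [hlm]
  have hE1 : (l * m) u0 = u0 * y₁ * y₂ * r * y₂⁻¹ * t := by
    show l (m u0) = _
    rw [hmu', map_mul, map_mul, hlu', hly2, hlt]
  have hE2 : (m * l) u0 = u0 * y₂ * t * y₁⁻¹ * y₂⁻¹ * r := by
    show m (l u0) = _
    rw [hlu', map_mul, map_mul, map_mul, hmu', hmy1, hmy2, hmr]
  rw [hE1, hE2] at hE
  have hL1 : u0 * y₁ * y₂ * r * y₂⁻¹ * t = u0 * (y₁ * (r * t)) := by
    have e1 : y₂ * r * y₂⁻¹ = r := by rw [hrc y₂, mul_inv_cancel_right]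
    calc u0 * y₁ * y₂ * r * y₂⁻¹ * t = u0 * y₁ * (y₂ * r * y₂⁻¹) * t := by simp only [mul_assoc]
      _ = u0 * (y₁ * (r * t)) := by rw [e1]; simp only [mul_assoc]
  have hR1 : u0 * y₂ * t * y₁⁻¹ * y₂⁻¹ * r = u0 * (y₁⁻¹ * (r * t)) := by
    have e1 : y₂ * y₁⁻¹ * y₂⁻¹ = y₁⁻¹ := by
      have h6 : Commute y₂ y₁⁻¹ := (Commute.symm c12).inv_right
      rw [h6.eq, mul_inv_cancel_right]
    calc u0 * y₂ * t * y₁⁻¹ * y₂⁻¹ * r = u0 * (y₂ * t) * y₁⁻¹ * y₂⁻¹ * r := by simp only [mul_assoc]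
      _ = u0 * (t * y₂) * y₁⁻¹ * y₂⁻¹ * r := by rw [htc y₂]
      _ = u0 * (t * (y₂ * y₁⁻¹ * y₂⁻¹)) * r := by simp only [mul_assoc]
      _ = u0 * (t * y₁⁻¹) * r := by rw [e1]
      _ = u0 * (y₁⁻¹ * t) * r := by rw [htc y₁⁻¹]
      _ = u0 * (y₁⁻¹ * (t * r)) := by simp only [mul_assoc]
      _ = u0 * (y₁⁻¹ * (r * t)) := by rw [htc r]
  rw [hL1, hR1] at hE
  have hE3 : y₁ = y₁⁻¹ := mul_right_cancel (mul_left_cancel hE)
  apply hz.ne
  rw [← h₁]
  nth_rewrite 1 [hE3]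
  exact inv_mul_cancel y₁

/-- The obstruction in terms of a suitable triple. -/
theorem core2 [Finite Q] (hz : Cl2 z) (hc : ∀ w : Q, (∀ u, u * w = w * u) → w = 1 ∨ w = z) {D E F : Q}
    (hD : D * D = z) (hE : E * E = 1) (hF : F * F = 1) (cDE : D * E = E * D) (cDF : D * F = F * D)
    (cEF : E * F = F * E) (h2 : E ≠ 1 ∧ E ≠ z) (h3 : F ≠ 1 ∧ F ≠ z) (h23 : E * F ≠ 1 ∧ E * F ≠ z)
    (L : Subgroup (MulAut Q)) (hL : (Cfsg.Inn Q).IsComplement' L) : False := by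
  have hne : ∀ w : Q, w * w = z → w ≠ 1 ∧ w ≠ z := by
    intro w hw
    constructor
    · rintro rfl
      exact hz.ne (by rw [← hw, mul_one])
    · rintro rfl
      exact hz.ne (by rw [← hw, hz.sq])
  have hs2 : (D * E) * (D * E) = z := by
    have hcm : Commute E D := cDE.symm
    rw [hcm.mul_mul_mul_comm, hD, hE, mul_one]
  have hs3 : (D * F) * (D * F) = z := by
    have hcm : Commute F D := cDF.symm
    rw [hcm.mul_mul_mul_comm, hD, hF, mul_one]
  have cDEF : (D * E) * F = F * (D * E) := by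
    have h1 : Commute F (D * E) := Commute.mul_right cDF.symm cEF.symm
    exact h1.eq.symm
  have hs4 : (D * E * F) * (D * E * F) = z := by
    have hcm : Commute F (D * E) := Commute.mul_right cDF.symm cEF.symm
    rw [hcm.mul_mul_mul_comm, hs2, hF, mul_one]
  have hx : ∀ (a b c : ZMod 2), ∃ u, bit D u = a ∧ bit E u = b ∧ bit F u = c :=
    pattern hz hc D E F (hne D hD) h2 h3 (hne _ hs2) (hne _ hs3) h23 (hne _ hs4)
  have c1 : Commute D (D * E) := (Commute.refl D).mul_right cDE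
  have c2 : Commute D (D * F) := (Commute.refl D).mul_right cDF
  have c3 : Commute D (D * E * F) := ((Commute.refl D).mul_right cDE).mul_right cDF
  have c4 : Commute (D * E) (D * F) := by
    apply Commute.mul_right
    · exact Commute.mul_left (Commute.refl D) (cDE.symm : Commute E D)
    · exact Commute.mul_left (cDF : Commute D F) (cEF : Commute E F)
  have c5 : Commute (D * E) (D * E * F) := (Commute.refl (D * E)).mul_right cDEF
  have c6 : Commute (D * F) (D * E * F) := by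
    apply Commute.mul_right c4.symm
    exact Commute.mul_left (cDF : Commute D F) (Commute.refl F)
  have hprod : D * (D * E) * (D * F) * (D * E * F) = 1 := by
    have h1 : D * (D * E) = z * E := by rw [← mul_assoc, hD]
    have h2 : (D * F) * (D * E * F) = z * E * (F * F) := by
      calc (D * F) * (D * E * F) = (D * F) * (D * E) * F := by simp only [mul_assoc]
        _ = (D * E) * (D * F) * F := by rw [c4.eq]
        _ = D * (E * D) * (F * F) := by simp only [mul_assoc]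
        _ = D * (D * E) * (F * F) := by rw [cDE]
        _ = z * E * (F * F) := by rw [h1]
    calc D * (D * E) * (D * F) * (D * E * F) = D * (D * E) * ((D * F) * (D * E * F)) := by simp only [mul_assoc]
      _ = (z * E) * (z * E) := by rw [h1, h2, hF, mul_one]
      _ = z * (E * z) * E := by simp only [mul_assoc]
      _ = z * (z * E) * E := by rw [hz.cen E]
      _ = (z * z) * (E * E) := by simp only [mul_assoc]
      _ = 1 := by rw [hz.sq, hE, mul_one]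
  have hb : ∀ (u : Q) (a b c : ZMod 2), bit D u = a → bit E u = b → bit F u = c →
      bit D u = a ∧ bit (D * E) u = a + b ∧ bit (D * F) u = a + c ∧ bit (D * E * F) u = a + b + c := by
    intro u a b c h1 h2 h3
    refine ⟨h1, ?_, ?_, ?_⟩
    · rw [bit_mul_left hz, h1, h2]
    · rw [bit_mul_left hz, h1, h3]
    · rw [bit_mul_left hz, bit_mul_left hz, h1, h2, h3]
  obtain ⟨ua, a1, a2, a3⟩ := hx 0 1 0
  obtain ⟨u0, b1, b2, b3⟩ := hx 1 0 1
  obtain ⟨u3, d1, d2, d3⟩ := hx 1 1 0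
  obtain ⟨u4, e1, e2, e3⟩ := hx 1 1 1
  obtain ⟨A1, A2, A3, A4⟩ := hb ua _ _ _ a1 a2 a3
  obtain ⟨B1, B2, B3, B4⟩ := hb u0 _ _ _ b1 b2 b3
  obtain ⟨C1, C2, C3, C4⟩ := hb u3 _ _ _ d1 d2 d3
  obtain ⟨E1, E2, E3, E4⟩ := hb u4 _ _ _ e1 e2 e3
  have k1 : (0 : ZMod 2) + 1 = 1 := by decide
  have k2 : (1 : ZMod 2) + 0 = 1 := by decide
  have k3 : (1 : ZMod 2) + 1 = 0 := by decide
  have k4 : (0 : ZMod 2) + 0 = 0 := by decide
  rw [k1] at A2
  rw [k2] at B2
  rw [k3] at B3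
  rw [k2, k3] at B4
  rw [k3] at C2
  rw [k2] at C3
  rw [k3, k4] at C4
  rw [k3] at E2
  rw [k3] at E3
  rw [k3, k1] at E4
  exact core hz hD hs2 hs3 hs4 c1 c2 c3 c4 c5 c6 hprod ⟨A1, A2⟩ ⟨B1, B2, B3, B4⟩ ⟨C2, C3, C4⟩ ⟨E2, E3, E4⟩ L hL

end Cfsg.Agent.Lib.Griess
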